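-- Team project OTSM (S5987), package [NOTPLUS] (helper52): the minus form has no totally
-- singular subspace of half the dimension, in any characteristic (from helper53's count of the
-- totally singular subspaces).
import Mathlib
import Cfsg.Agent.Lib.Helper31.OTSM.TwoDefs
import Cfsg.Agent.Lib.Helper53.OTS.CountPM

set_option autoImplicit false
open scoped MatrixGroups
open Matrix

namespace Cfsg.Agent.Lib.Helper52.OTSM

open Cfsg.Agent.Lib.Helper23.OHyp Cfsg.Agent.Lib.Helper64.OParM

universe u

/-- [NOTPLUS] -/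
theorem pkgNotPlus : Cfsg.Agent.Lib.Helper31.OTSM.PkgNotPlus.{u} := by
  intro F _ _ k a b hab
  rintro ⟨U, -, hUs, hUd⟩
  have hU : Module.finrank F U = k + 1 := by
    have h := hUd
    rw [finrank_top, Module.finrank_fintype_fun_eq_card] at h
    simp at h
    omega
  have hcnt : Nat.card {W : Submodule F (MI k → F) //
        Module.finrank F W = k + 1 ∧
          Cfsg.Geo.IsTotallySingularQuad (Cfsg.quadFormMinus k F a b) W} *
      Cfsg.Agent.Lib.Helper40.Elusive.Q (Fintype.card F) (k + 1) (k + 1) =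
      ∏ j ∈ Finset.range (k + 1),
        ((Fintype.card F ^ (k + 1 - j) + 1) * (Fintype.card F ^ (k + 1 - j - 1) - 1)) :=
    Cfsg.Agent.Lib.Helper53.OTS.card_ts_minus' (F := F) (k + 1) (k + 1) (by omega) le_rfl a b hab
  have hprod : ∏ j ∈ Finset.range (k + 1),
      ((Fintype.card F ^ (k + 1 - j) + 1) * (Fintype.card F ^ (k + 1 - j - 1) - 1)) = 0 :=
    Finset.prod_eq_zero (Finset.mem_range.mpr (Nat.lt_succ_self k)) (by simp)
  rw [hprod] at hcnt
  have hQpos := Cfsg.Agent.Lib.Helper40.Elusive.Q_pos (Fintype.card F) (k + 1) (k + 1)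
    Fintype.one_lt_card le_rfl
  have hzero : Nat.card {W : Submodule F (MI k → F) //
        Module.finrank F W = k + 1 ∧
          Cfsg.Geo.IsTotallySingularQuad (Cfsg.quadFormMinus k F a b) W} = 0 := by
    rcases Nat.mul_eq_zero.mp hcnt with h | h
    · exact h
    · omega
  have hfin : Finite (Submodule F (MI k → F)) :=
    Finite.of_injective (fun W => (W : Set (MI k → F))) SetLike.coe_injective
  rcases Nat.card_eq_zero.mp hzero with h | h
  · exact h.false ⟨U, hU, hUs⟩
  · exact h.false

example : Cfsg.Agent.Lib.Helper31.OTSM.PkgNotPlus.{0} := pkgNotPlus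
example : Cfsg.Agent.Lib.Helper31.OTSM.PkgNotPlus.{3} := pkgNotPlus

end Cfsg.Agent.Lib.Helper52.OTSM
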